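import Mathlib
import Cfsg.Agent.Lib.Helper24.BG.S1431Defs
import Cfsg.Agent.Lib.Helper35.BG.Basic
import Cfsg.Agent.Lib.Helper67.BG.Basics
import Cfsg.Agent.Lib.Helper67.BG.HallUtil
import Cfsg.Agent.Lib.Helper67.BG.S1432Core

/-!
# Bender–Glauberman 14.2: package `LemStar` of the S1431 team project

For `x ∈ K* = C_{M_σ}(K)` of prime order, `C_G(x) ≤ M` (given the uniqueness clause for the Sylow
subgroups of `M_σ` for the primes dividing `|K*|`).
-/

set_option autoImplicit false
set_option linter.unusedSectionVars false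
set_option linter.style.haveILetI false

namespace Cfsg.Agent.Lib.Helper81.BG

open Cfsg Cfsg.Agent.Lib.Helper46 Cfsg.Agent.Lib.Helper35.BG Cfsg.Agent.Lib.Helper67.BG

universe u

section Tools

variable {G : Type u} [Group G] [Finite G]

/-- a conjugate of a maximal subgroup is maximal -/
theorem coatom_map_conj {M : Subgroup G} (hM : IsCoatom M) (g : G) :
    IsCoatom (M.map (MulAut.conj g).toMonoidHom) :=
  ((MulAut.conj g).mapSubgroup.isCoatom_iff M).mpr hM

/-- `σ` is invariant under conjugation -/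
theorem mem_sigma_map_conj {M : Subgroup G} {p : ℕ} [Fact p.Prime] (hp : p ∈ sigma M) (g : G) :
    p ∈ sigma (M.map (MulAut.conj g).toMonoidHom) := by
  obtain ⟨hpp, hdvd, P, hP⟩ := hp
  have hS : IsSylowIn p ((P : Subgroup M).map M.subtype) M := isSylowIn_of_sylow P
  have hS' := sylIn_map_conj hS g
  obtain ⟨P', hP'⟩ := hS'.exists_sylow
  refine ⟨hpp, ?_, P', ?_⟩
  · rw [card_map_conj]
    exact hdvd
  · rw [hP', normalizer_map_conj]
    exact Subgroup.map_mono hP

theorem card_mul_relIndex_of_le {H M : Subgroup G} (h : H ≤ M) :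
    Nat.card H * H.relIndex M = Nat.card M := by
  have := Subgroup.card_mul_index (H.subgroupOf M)
  rwa [Nat.card_congr (Subgroup.subgroupOfEquivOfLe h).toEquiv] at this

/-- a `p`-subgroup of `H` of index prime to `p` is a Sylow `p`-subgroup of `H` -/
theorem sylIn_of_not_dvd_relIndex {p : ℕ} [Fact p.Prime] {R H : Subgroup G} (hRH : R ≤ H)
    (hR : IsPGroup p R) (hnd : ¬ p ∣ R.relIndex H) : IsSylowIn p R H := by
  refine ⟨hRH, ?_⟩
  obtain ⟨n, hn⟩ := IsPGroup.iff_card.mp hR
  have h1 := card_mul_relIndex_of_le hRH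
  have hri : R.relIndex H ≠ 0 := by
    intro h0
    rw [h0, mul_zero] at h1
    exact Nat.card_pos.ne' h1.symm
  have hp : p.Prime := Fact.out
  rw [← h1, Nat.factorization_mul Nat.card_pos.ne' hri, hn]
  have h0 : (R.relIndex H).factorization p = 0 := Nat.factorization_eq_zero_of_not_dvd hnd
  simp [h0, Nat.Prime.factorization_pow hp]

/-- a Sylow `p`-subgroup of `M` lies in every normal Hall `π`-subgroup of `M` with `p ∈ π` -/
theorem sylIn_hall_normal {π : Set ℕ} {N M S : Subgroup G} {p : ℕ} [Fact p.Prime]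
    (hN : IsPiHallOf π N M) (hnorm : M ≤ Subgroup.normalizer (N : Set G)) (hp : p ∈ π)
    (hS : IsSylowIn p S M) : IsSylowIn p S N := by
  obtain ⟨T, hT, -⟩ := exists_isSylowIn_ge (p := p) (Q := ⊥) (H := N) IsPGroup.of_bot bot_le
  have hTM : IsSylowIn p T M :=
    sylIn_of_not_dvd_relIndex (hT.1.trans hN.1) (sylIn_isPGroup hT) (by
      intro hdvd
      have h1 : T.relIndex M = T.relIndex N * N.relIndex M :=
        (Subgroup.relIndex_mul_relIndex T N M hT.1 hN.1).symm
      rw [h1] at hdvd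
      have hpp : p.Prime := Fact.out
      rcases (Nat.Prime.dvd_mul hpp).mp hdvd with h | h
      · -- `T` is Sylow in `N`
        have h2 := card_mul_relIndex_of_le hT.1
        have h3 : (Nat.card N).factorization p =
            (Nat.card T).factorization p + (T.relIndex N).factorization p := by
          rw [← h2, Nat.factorization_mul Nat.card_pos.ne' (by
            intro h0
            rw [h0, mul_zero] at h2
            exact Nat.card_pos.ne' h2.symm)]
          rfl
        rw [hT.2, Nat.Prime.factorization_pow hpp] at h3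
        have h4 : 0 < (T.relIndex N).factorization p :=
          hpp.factorization_pos_of_dvd (by
            intro h0
            rw [h0, mul_zero] at h2
            exact Nat.card_pos.ne' h2.symm) h
        simp at h3
        omega
      · exact hN.2.2 p hpp hp h)
  obtain ⟨g, hg, rfl⟩ := hTM.exists_conj hS
  refine ⟨?_, ?_⟩
  · have h1 : T.map (MulAut.conj g).toMonoidHom ≤ N.map (MulAut.conj g).toMonoidHom :=
      Subgroup.map_mono hT.1
    rwa [map_conj_eq_of_mem_normalizer (hnorm hg)] at h1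
  · rw [card_map_conj, hT.2]

theorem centralizer_singleton_le_normalizer_zpowers (x : G) :
    Subgroup.centralizer ({x} : Set G) ≤ Subgroup.normalizer ((Subgroup.zpowers x : Subgroup G) : Set G) := by
  have h1 : Subgroup.centralizer ({x} : Set G) =
      Subgroup.centralizer ((Subgroup.zpowers x : Subgroup G) : Set G) := by
    rw [Subgroup.zpowers_eq_closure, Subgroup.centralizer_closure]
  rw [h1]
  exact centralizer_le_normalizer' _

end Tools

section Main

/-- **Package Star** of the S1431 team project: for `x ∈ K*` of prime order, `C_G(x) ≤ M`. -/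
theorem lemStar : Cfsg.Agent.Lib.Helper24.BG31.LemStar.{u} := by
  intro G _ _ hG h1350 h1404 h1405 h1417 h1420 h1424 h1430 M hM K hK hK1 hF1 x hx hxp
  have hxσ : x ∈ sigmaCore M := hx.1
  have hxC : x ∈ Subgroup.centralizer (K : Set G) := hx.2
  have hxM : x ∈ M := sigmaCore_le M hxσ
  haveI : Fact (orderOf x).Prime := ⟨hxp⟩
  have hx1 : x ≠ 1 := by
    intro h
    rw [h, orderOf_one] at hxp
    exact Nat.not_prime_one hxp
  have hpKs : orderOf x ∣ Nat.card ↥(sigmaCore M ⊓ Subgroup.centralizer (K : Set G)) := by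
    have h1 := orderOf_dvd_natCard
      (⟨x, hx⟩ : ↥(sigmaCore M ⊓ Subgroup.centralizer (K : Set G)))
    rwa [Subgroup.orderOf_mk] at h1
  have hpσc : orderOf x ∣ Nat.card (sigmaCore M) := by
    have h1 := orderOf_dvd_natCard (⟨x, hxσ⟩ : sigmaCore M)
    rwa [Subgroup.orderOf_mk] at h1
  have hpσ : orderOf x ∈ sigma M := sigmaCore_isPi M _ hxp hpσc
  -- the subgroup `X = ⟨x⟩`
  have hXcard : Nat.card (Subgroup.zpowers x) = orderOf x := Nat.card_zpowers x
  have hXp : IsPGroup (orderOf x) (Subgroup.zpowers x) :=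
    IsPGroup.of_card (n := 1) (by rw [hXcard, pow_one])
  have hX1 : Subgroup.zpowers x ≠ ⊥ := fun h => hx1 (Subgroup.zpowers_eq_bot.mp h)
  have hXM : Subgroup.zpowers x ≤ M := by
    rw [Subgroup.zpowers_le]
    exact hxM
  have hXtop : Subgroup.zpowers x ≠ ⊤ := by
    intro h
    rw [h] at hXM
    exact hM.1 (top_le_iff.mp hXM)
  have hCxN := centralizer_singleton_le_normalizer_zpowers x
  -- an element `k0` of prime order `r` in `K`
  obtain ⟨r, hr, hrK⟩ : ∃ r : ℕ, r.Prime ∧ r ∣ Nat.card K := by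
    apply Nat.exists_prime_and_dvd
    intro h
    exact hK1 (Subgroup.card_eq_one.mp h)
  haveI : Fact r.Prime := ⟨hr⟩
  obtain ⟨k0', hk0'⟩ := exists_prime_orderOf_dvd_card' r hrK
  have hk0K : (k0' : G) ∈ K := k0'.2
  have hk0o : orderOf (k0' : G) = r := by
    rw [← hk0']
    exact Subgroup.orderOf_coe k0'
  have hk01 : (k0' : G) ≠ 1 := by
    intro h
    rw [h, orderOf_one] at hk0o
    exact hr.one_lt.ne hk0o
  have hrκ : r ∈ kappa M := hK.2.1 r hr hrK
  have hrσ : r ∉ sigma M := hrκ.2.2.1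
  have hX0K : Subgroup.zpowers (k0' : G) ≤ K := by
    rw [Subgroup.zpowers_le]
    exact hk0K
  have hX0card : Nat.card (Subgroup.zpowers (k0' : G)) = r := by
    rw [Nat.card_zpowers, hk0o]
  have hX01 : Subgroup.zpowers (k0' : G) ≠ ⊥ := fun h => hk01 (Subgroup.zpowers_eq_bot.mp h)
  have hX0top : Subgroup.zpowers (k0' : G) ≠ ⊤ := by
    intro h
    have h1 : Subgroup.zpowers (k0' : G) ≤ M := hX0K.trans hK.1
    rw [h] at h1
    exact hM.1 (top_le_iff.mp h1)
  obtain ⟨M2, hM2, hNM2⟩ := exists_coatom_ge (normalizer_ne_top hG hX01 hX0top)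
  obtain ⟨-, -, h30c⟩ := h1430 M hM K hK hK1
  have hX0σ : Subgroup.zpowers (k0' : G) ≤ sigmaCore M2 :=
    (h30c _ hX0K (by rw [hX0card]; exact hr)).2.2 M2 hM2 hNM2
  have hk0σ2 : (k0' : G) ∈ sigmaCore M2 := hX0σ (Subgroup.mem_zpowers _)
  have hrσ2c : r ∣ Nat.card (sigmaCore M2) := by
    have h1 := orderOf_dvd_natCard (⟨(k0' : G), hk0σ2⟩ : sigmaCore M2)
    rwa [Subgroup.orderOf_mk, hk0o] at h1
  have hrσ2 : r ∈ sigma M2 := sigmaCore_isPi M2 r hr hrσ2c
  have hM2ne : M2 ≠ M := by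
    intro h
    rw [h] at hrσ2
    exact hrσ hrσ2
  have hxk0 : x * (k0' : G) = (k0' : G) * x :=
    ((Subgroup.mem_centralizer_iff.mp hxC) _ hk0K).symm
  have hxCX0 : x ∈ Subgroup.centralizer ((Subgroup.zpowers (k0' : G) : Subgroup G) : Set G) :=
    Subgroup.centralizer_le (show ((Subgroup.zpowers (k0' : G) : Subgroup G) : Set G) ⊆ (K : Set G)
      from hX0K) hxC
  have hxM2 : x ∈ M2 := hNM2 (centralizer_le_normalizer' _ hxCX0)
  have hXM2 : Subgroup.zpowers x ≤ M2 := by
    rw [Subgroup.zpowers_le]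
    exact hxM2
  by_cases hpσ2 : orderOf x ∈ sigma M2
  · -- `p ∈ σ(M₂)` is impossible
    exfalso
    obtain ⟨S2, hS2, hXS2⟩ := exists_isSylowIn_ge hXp hXM2
    obtain ⟨S, hS, -⟩ := exists_isSylowIn_ge (p := orderOf x) (Q := ⊥) (H := M)
      IsPGroup.of_bot bot_le
    have hS2top := isSylowIn_top_of_sigma hpσ2 hS2
    have hStop := isSylowIn_top_of_sigma hpσ hS
    obtain ⟨g, -, hg⟩ := hS2top.exists_conj hStop
    have hXg : (Subgroup.zpowers x).map (MulAut.conj g).toMonoidHom ≤ M := by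
      refine (Subgroup.map_mono hXS2).trans ?_
      rw [← hg]
      exact hS.1
    obtain ⟨m, hm, c, hc, hgmc⟩ := (h1404 M hM (orderOf x) hpσ _ hXp hX1 hXM).1 g hXg
    have hS3 : S2.map (MulAut.conj c).toMonoidHom = S.map (MulAut.conj m⁻¹).toMonoidHom := by
      rw [hg, map_conj_mul]
      have : m⁻¹ * g = c := by rw [hgmc]; group
      rw [this]
    have hS3M : IsSylowIn (orderOf x) (S2.map (MulAut.conj c).toMonoidHom) M := by
      rw [hS3]
      have h1 := sylIn_map_conj hS m⁻¹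
      rwa [map_conj_eq_of_mem (M.inv_mem hm)] at h1
    have hS3σ := sylIn_hall_normal (h1350 M hM).1 (sigmaCore_normalizer M) hpσ hS3M
    obtain ⟨L, -, hLuniq⟩ := hF1 (orderOf x) hxp hpKs _ hS3σ
    have hLM : M = L := hLuniq M ⟨hM, hS3M.1⟩
    have hM2c : M2.map (MulAut.conj c).toMonoidHom = L :=
      hLuniq _ ⟨coatom_map_conj hM2 c, Subgroup.map_mono hS2.1⟩
    have h1 := mem_sigma_map_conj hrσ2 c
    rw [hM2c, ← hLM] at h1
    exact hrσ h1
  · rcases kappa_or_tau2 hG h1405 M2 hM2 (orderOf x) hxp hpσ2 x hxM2 rfl (k0' : G) hk0σ2 hk01 hxk0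
      with hκ | hτ
    · -- `p ∈ κ(M₂)`
      have hsolv2 : Group.IsSolvable M2 := isSolvable_of_ne_top hG hM2.1
      obtain ⟨K2, hK2, hXK2⟩ := exists_piHallOf_ge (kappa M2) M2 hsolv2 (Subgroup.zpowers x) hXM2
        (fun q hq hqd => by
          rw [hXcard] at hqd
          rw [(Nat.prime_dvd_prime_iff_eq hq hxp).mp hqd]
          exact hκ)
      have hK21 : K2 ≠ ⊥ := by
        intro h
        rw [h] at hXK2
        exact hX1 (le_bot_iff.mp hXK2)
      obtain ⟨-, -, h30c2⟩ := h1430 M2 hM2 K2 hK2 hK21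
      have hXall := (h30c2 _ hXK2 (by rw [hXcard]; exact hxp)).2.2
      intro c hc
      by_contra hcM
      obtain ⟨L, hL, hNL⟩ := exists_coatom_ge (normalizer_ne_top hG hX1 hXtop)
      have hcL : c ∈ L := hNL (hCxN hc)
      have hLne : L ≠ M := by
        intro h
        rw [h] at hcL
        exact hcM hcL
      have hXσL : Subgroup.zpowers x ≤ sigmaCore L := hXall L hL hNL
      have hxσL : x ∈ sigmaCore L := hXσL (Subgroup.mem_zpowers x)
      have hpσL : orderOf x ∈ sigma L := by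
        apply sigmaCore_isPi L _ hxp
        have h1 := orderOf_dvd_natCard (⟨x, hxσL⟩ : sigmaCore L)
        rwa [Subgroup.orderOf_mk] at h1
      have hXL : Subgroup.zpowers x ≤ L := hXσL.trans (sigmaCore_le L)
      obtain ⟨R, hR, hXR⟩ := exists_isSylowIn_ge hXp (le_inf hXM hXL)
      obtain ⟨Sy, hSy⟩ := hR.exists_sylow
      obtain ⟨-, -, h24c⟩ := h1424 M hM (orderOf x) hpσ _ hXp hX1 hXM L hL hLne hNL Sy
        (by rw [hSy]; exact hXR)
      rw [hSy] at h24c
      have hRL : IsSylowIn (orderOf x) R L :=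
        sylIn_of_not_dvd_relIndex (hR.1.trans inf_le_right) (sylIn_isPGroup hR) h24c
      have hRtop : IsSylowIn (orderOf x) R ⊤ := isSylowIn_top_of_sigma hpσL hRL
      have hRM : IsSylowIn (orderOf x) R M := sylIn_mono hRtop (hR.1.trans inf_le_left) le_top
      have hRσ := sylIn_hall_normal (h1350 M hM).1 (sigmaCore_normalizer M) hpσ hRM
      obtain ⟨L', -, hLuniq⟩ := hF1 (orderOf x) hxp hpKs R hRσ
      have h1 : M = L' := hLuniq M ⟨hM, hRM.1⟩
      have h2 : L = L' := hLuniq L ⟨hL, hRL.1⟩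
      exact hLne (h2.trans h1.symm)
    · -- `p ∈ τ₂(M₂)` is impossible
      exfalso
      obtain ⟨hHall2, -, -⟩ := h1350 M2 hM2
      obtain ⟨E, hE⟩ := exists_compl_sigmaCore M2 hHall2
      obtain ⟨-, -, -, h20d⟩ := h1420 M2 hM2 E hE
      have hxhat : x ∈ sigmaHat M2 := ⟨hxM2, (k0' : G), hk0σ2, hk01, hxk0⟩
      obtain ⟨-, hCxuniq⟩ := h20d x hxM2 hx1 (fun q hq hqd => by
        rw [(Nat.prime_dvd_prime_iff_eq hq hxp).mp hqd]
        exact hτ) hxhat
      obtain ⟨L, hL, hNL⟩ := exists_coatom_ge (normalizer_ne_top hG hX1 hXtop)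
      have hLM2 : L = M2 := hCxuniq L hL (hCxN.trans hNL)
      rw [hLM2] at hNL
      obtain ⟨R, hR, hXR⟩ := exists_isSylowIn_ge hXp (le_inf hXM hXM2)
      obtain ⟨Sy, hSy⟩ := hR.exists_sylow
      obtain ⟨-, -, h24c⟩ := h1424 M hM (orderOf x) hpσ _ hXp hX1 hXM M2 hM2 hM2ne hNL Sy
        (by rw [hSy]; exact hXR)
      rw [hSy] at h24c
      have hRM2 : IsSylowIn (orderOf x) R M2 :=
        sylIn_of_not_dvd_relIndex (hR.1.trans inf_le_right) (sylIn_isPGroup hR) h24c
      obtain ⟨A, hAM2, hAe, hAc⟩ :=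
        Cfsg.Agent.Lib.Helper20.BG.exists_ea_sq M2 (orderOf x) hτ.2.2.1 hτ.2.2.2
      obtain ⟨R', hR', hAR'⟩ := exists_isSylowIn_ge
        (Cfsg.Agent.Lib.Helper20.BG.isPGroup_of_ea hAe) hAM2
      obtain ⟨g, -, hg⟩ := hR'.exists_conj hRM2
      have hA'R : A.map (MulAut.conj g).toMonoidHom ≤ R := by
        rw [hg]
        exact Subgroup.map_mono hAR'
      have hA'M2 : A.map (MulAut.conj g).toMonoidHom ≤ M2 := hA'R.trans hRM2.1
      have hA'M : A.map (MulAut.conj g).toMonoidHom ≤ M := hA'R.trans (hR.1.trans inf_le_left)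
      have hA'e : IsElementaryAbelian (orderOf x) (A.map (MulAut.conj g).toMonoidHom) :=
        isElementaryAbelian_map_conj hAe g
      have hA'c : Nat.card (A.map (MulAut.conj g).toMonoidHom) = orderOf x ^ 2 := by
        rw [card_map_conj, hAc]
      obtain ⟨-, -, -, -, h17e, -⟩ := h1417 M2 hM2 (orderOf x) hτ _ ⟨hA'M2, hA'e, hA'c⟩
      have h1 := h17e M hM (Ne.symm hM2ne) hA'M
      have hk0in : (k0' : G) ∈ sigmaCore M2 ⊓ M := ⟨hk0σ2, hK.1 hk0K⟩
      rw [h1, Subgroup.mem_bot] at hk0in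
      exact hk01 hk0in

end Main

end Cfsg.Agent.Lib.Helper81.BG
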